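import Mathlib
import Cfsg.Agent.Lib.Helper1.QuotRank
import Cfsg.Agent.Lib.Helper1.RegTools
import Cfsg.Agent.Lib.Helper7.BlockKer
import Cfsg.Agent.Lib.Helper25.Ind
import Cfsg.Agent.Lib.Helper2.CharGal2
import Cfsg.Agent.Lib.Helper2.CharInt
import Cfsg.Agent.Lib.Helper2.CharInner
import Cfsg.Agent.Lib.Helper7.CharColumn
import Cfsg.Agent.Lib.Helper7.BlockDefect

/-! The principal block of `G` and of `G / K` for a normal `p'`-subgroup `K`; rationality of
column norms of the principal block. -/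

set_option autoImplicit false
set_option linter.style.haveILetI false

namespace Cfsg.Agent.Lib.Helper10.B0Quot

open Cfsg Cfsg.Agent.Lib.Helper7 Cfsg.Agent.Lib.Helper24 Cfsg.Agent.Lib.Helper1
open scoped ComplexConjugate

universe u
variable {G : Type u} [Group G] [Finite G] {p : ℕ}

omit [Finite G] in
theorem dvd_orderOf_mk_iff (hp : p.Prime) (K : Subgroup G) [K.Normal] (hK : ¬ p ∣ Nat.card K)
    (g : G) : p ∣ orderOf (QuotientGroup.mk' K g) ↔ p ∣ orderOf g := by
  constructor
  · intro h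
    exact h.trans (orderOf_map_dvd _ g)
  · intro h
    by_contra hn
    have h1 : g ^ orderOf (QuotientGroup.mk' K g) ∈ K := by
      rw [← QuotientGroup.eq_one_iff]
      show QuotientGroup.mk' K (g ^ orderOf (QuotientGroup.mk' K g)) = 1
      rw [map_pow, pow_orderOf_eq_one]
    have h2 : (g ^ orderOf (QuotientGroup.mk' K g)) ^ Nat.card K = 1 := by
      have := pow_card_eq_one' (x := (⟨_, h1⟩ : K))
      exact congrArg Subtype.val this
    rw [← pow_mul] at h2
    have h3 := h.trans (orderOf_dvd_of_pow_eq_one h2)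
    rcases (Nat.Prime.dvd_mul hp).1 h3 with h4 | h4
    · exact hn h4
    · exact hK h4

omit [Finite G] in
theorem regInd_mk (hp : p.Prime) (K : Subgroup G) [K.Normal] (hK : ¬ p ∣ Nat.card K) (g : G) :
    regInd p (G ⧸ K) (QuotientGroup.mk' K g) = regInd p G g := by
  by_cases h : p ∣ orderOf g
  · rw [regInd_of_singular h, regInd_of_singular ((dvd_orderOf_mk_iff hp K hK g).2 h)]
  · rw [regInd_of_regular h, regInd_of_regular (fun h' => h ((dvd_orderOf_mk_iff hp K hK g).1 h'))]

theorem inflIrr_mem_principalBlock_iff {M : Ideal AlgInt} (hM : IsPModular p M) (K : Subgroup G)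
    [K.Normal] (hK : ¬ p ∣ Nat.card K) (ψ : IrrCharacter (G ⧸ K)) :
    inflIrr K ψ ∈ principalBlock M G ↔ ψ ∈ principalBlock M (G ⧸ K) := by
  classical
  haveI := hM.2.1.isPrime
  haveI := Fintype.ofFinite G
  haveI := Fintype.ofFinite (G ⧸ K)
  rw [mem_principalBlock_iff hM, mem_principalBlock_iff hM]
  have h1 : Om (regInd p G) (inflIrr K ψ) = (Nat.card K : ℂ) * Om (regInd p (G ⧸ K)) ψ := by
    rw [Om, Om, ← mul_div_assoc,
      ← Cfsg.Agent.Lib.Helper25.sum_comp_quotient_mk K
        (fun q => regInd p (G ⧸ K) q * (ψ : G ⧸ K → ℂ) q)]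
    congr 1
    apply Finset.sum_congr rfl
    intro g _
    rw [regInd_mk hM.1 K hK, inflIrr_apply]
  rw [h1]
  constructor
  · intro h h'
    exact h (memLocalIdeal_mul_left (memLocalRing_natCast _) h')
  · intro h
    exact not_memLocalIdeal_mul (memLocalRing_natCast _)
      (fun h' => hK ((memLocalIdeal_natCast_iff hM _).1 h')) h

theorem principalBlock_eq_image {M : Ideal AlgInt} (hM : IsPModular p M) (K : Subgroup G)
    [K.Normal] (hK : ¬ p ∣ Nat.card K) :
    principalBlock M G = inflIrr K '' principalBlock M (G ⧸ K) := by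
  ext χ
  constructor
  · intro hχ
    obtain ⟨ψ, rfl⟩ := (mem_range_inflIrr K χ).2 (ker_principalBlock hM hχ K hK)
    exact ⟨ψ, (inflIrr_mem_principalBlock_iff hM K hK ψ).1 hχ, rfl⟩
  · rintro ⟨ψ, hψ, rfl⟩
    exact (inflIrr_mem_principalBlock_iff hM K hK ψ).2 hψ

theorem finsum_principalBlock_quot {M : Ideal AlgInt} (hM : IsPModular p M) (K : Subgroup G)
    [K.Normal] (hK : ¬ p ∣ Nat.card K) {A : Type*} [AddCommMonoid A] (f : IrrCharacter G → A) :
    ∑ᶠ χ ∈ principalBlock M G, f χ = ∑ᶠ ψ ∈ principalBlock M (G ⧸ K), f (inflIrr K ψ) := by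
  rw [principalBlock_eq_image hM K hK]
  exact finsum_mem_image ((inflIrr_injective K).injOn)

theorem powIrr_injective {k : ℕ} (hk : Nat.Coprime k (Nat.card G)) :
    Function.Injective (powIrr (G := G) hk) := by
  intro χ₁ χ₂ h
  apply Subtype.ext
  funext g
  obtain ⟨y, rfl⟩ := (powCoprime hk.symm).surjective g
  exact congrFun (congrArg Subtype.val h) y

theorem powIrr_mem_iff {M : Ideal AlgInt} (hM : IsPModular p M)
    {k : ℕ} (hk : Nat.Coprime k (Nat.card G)) (χ : IrrCharacter G) :
    powIrr hk χ ∈ principalBlock M G ↔ χ ∈ principalBlock M G := by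
  haveI : Fintype G := Fintype.ofFinite _
  rw [mem_principalBlock_iff hM, rt_Om_powIrr, ← mem_principalBlock_iff hM]

/-- the column norm of the principal block is a positive integer -/
theorem exists_nat_sum_principalBlock {M : Ideal AlgInt} (hM : IsPModular p M)
    [Fintype (IrrCharacter G)] (x : G) :
    ∃ n : ℕ, 0 < n ∧ ∑ χ : IrrCharacter G, (principalBlock M G).indicator
      (fun χ => (χ : G → ℂ) x * conj ((χ : G → ℂ) x)) χ = (n : ℂ) := by
  classical
  haveI := hM.2.1.isPrime
  have hfd := Cfsg.Agent.Lib.Helper2.finiteDimensional_cycField (Nat.card G) Nat.card_pos.ne'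
  let w : IrrCharacter G → G → Cfsg.Agent.Lib.Helper2.cycField (Nat.card G) := fun χ g =>
    ⟨(χ : G → ℂ) g, Cfsg.Agent.Lib.Helper2.char_mem_cycField (isCharacter_of_irr χ.2) g⟩
  let α : Cfsg.Agent.Lib.Helper2.cycField (Nat.card G) :=
    ∑ χ : IrrCharacter G, if χ ∈ principalBlock M G then w χ x * w χ x⁻¹ else 0
  have hα : (α : ℂ) = ∑ χ : IrrCharacter G, (principalBlock M G).indicator
      (fun χ => (χ : G → ℂ) x * conj ((χ : G → ℂ) x)) χ := by
    simp only [α]
    rw [AddSubmonoidClass.coe_finsetSum]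
    apply Finset.sum_congr rfl
    intro χ _
    by_cases hχ : χ ∈ principalBlock M G
    · rw [if_pos hχ, Set.indicator_of_mem hχ, ← char_inv_eq_conj (isCharacter_of_irr χ.2)]
      rfl
    · rw [if_neg hχ, Set.indicator_of_notMem hχ]
      rfl
  have hσ : ∀ σ : Cfsg.Agent.Lib.Helper2.cycField (Nat.card G) →ₐ[ℚ] ℂ, σ α = (α : ℂ) := by
    intro σ
    obtain ⟨m, hm, hσm⟩ := Cfsg.Agent.Lib.Helper2.embedding_char σ
    have h1 : σ α = ∑ χ : IrrCharacter G, (principalBlock M G).indicator
      (fun χ => (χ : G → ℂ) x * conj ((χ : G → ℂ) x)) (powIrr hm χ) := by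
      simp only [α]
      rw [map_sum]
      apply Finset.sum_congr rfl
      intro χ _
      by_cases hχ : χ ∈ principalBlock M G
      · rw [if_pos hχ, Set.indicator_of_mem ((powIrr_mem_iff hM hm χ).2 hχ), map_mul,
          hσm χ (isCharacter_of_irr χ.2) x (w χ x) rfl,
          hσm χ (isCharacter_of_irr χ.2) x⁻¹ (w χ x⁻¹) rfl,
          ← char_inv_eq_conj (isCharacter_of_irr (powIrr hm χ).2), powIrr_apply, powIrr_apply]
      · rw [if_neg hχ, Set.indicator_of_notMem (fun h => hχ ((powIrr_mem_iff hM hm χ).1 h)),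
          map_zero]
    rw [h1, hα]
    exact Function.Bijective.sum_comp
      (Finite.injective_iff_bijective.1 (powIrr_injective hm)) _
  obtain ⟨q, hq⟩ := Cfsg.Agent.Lib.Helper2.rat_of_fixed _ α hσ
  have hint : IsIntegral ℤ (α : ℂ) := by
    rw [hα]
    refine IsIntegral.sum _ fun χ _ => ?_
    by_cases hχ : χ ∈ principalBlock M G
    · rw [Set.indicator_of_mem hχ, ← char_inv_eq_conj (isCharacter_of_irr χ.2)]
      exact (char_isIntegral (isCharacter_of_irr χ.2) _).mul
        (char_isIntegral (isCharacter_of_irr χ.2) _)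
    · rw [Set.indicator_of_notMem hχ]
      exact isIntegral_zero
  obtain ⟨k, hk⟩ := Cfsg.Agent.Lib.Helper2.exists_int_of_isIntegral_of_rat hint q hq
  rw [hα] at hk
  -- positivity
  have hre : ∑ χ : IrrCharacter G, (principalBlock M G).indicator
      (fun χ => (χ : G → ℂ) x * conj ((χ : G → ℂ) x)) χ
      = ((∑ χ : IrrCharacter G, (principalBlock M G).indicator
      (fun χ => Complex.normSq ((χ : G → ℂ) x)) χ : ℝ) : ℂ) := by
    rw [Complex.ofReal_sum]
    apply Finset.sum_congr rfl
    intro χ _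
    by_cases hχ : χ ∈ principalBlock M G
    · rw [Set.indicator_of_mem hχ, Set.indicator_of_mem hχ, Complex.mul_conj]
    · rw [Set.indicator_of_notMem hχ, Set.indicator_of_notMem hχ]
      rfl
  have hpos : (1 : ℝ) ≤ ∑ χ : IrrCharacter G, (principalBlock M G).indicator
      (fun χ => Complex.normSq ((χ : G → ℂ) x)) χ := by
    have h1 : (principalBlock M G).indicator
      (fun χ => Complex.normSq ((χ : G → ℂ) x)) (oneIrr G) = 1 := by
      rw [Set.indicator_of_mem oneIrr_mem_principalBlock]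
      simp [oneIrr]
    rw [← h1]
    apply Finset.single_le_sum (f := (principalBlock M G).indicator
      (fun χ => Complex.normSq ((χ : G → ℂ) x))) _ (Finset.mem_univ _)
    intro χ _
    exact Set.indicator_nonneg (fun χ _ => Complex.normSq_nonneg _) χ
  rw [hre] at hk
  have hk' : (∑ χ : IrrCharacter G, (principalBlock M G).indicator
      (fun χ => Complex.normSq ((χ : G → ℂ) x)) χ : ℝ) = (k : ℝ) := by
    exact_mod_cast hk
  rw [hk'] at hpos
  have hk1 : 1 ≤ k := by exact_mod_cast hpos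
  refine ⟨k.toNat, by omega, ?_⟩
  rw [hre, hk']
  have : ((k.toNat : ℤ) : ℂ) = (k : ℂ) := by rw [Int.toNat_of_nonneg (by omega)]
  push_cast at this ⊢
  exact this.symm

omit [Finite G] in
theorem finsum_normSq_eq_sum [Fintype (IrrCharacter G)] (B : Set (IrrCharacter G)) (x : G) :
    ((∑ᶠ χ ∈ B, Complex.normSq ((χ : G → ℂ) x) : ℝ) : ℂ)
      = ∑ χ : IrrCharacter G, B.indicator (fun χ => (χ : G → ℂ) x * conj ((χ : G → ℂ) x)) χ := by
  classical
  rw [finsum_mem_def, finsum_eq_sum_of_fintype, Complex.ofReal_sum]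
  apply Finset.sum_congr rfl
  intro χ _
  by_cases hχ : χ ∈ B
  · rw [Set.indicator_of_mem hχ, Set.indicator_of_mem hχ, Complex.mul_conj]
  · rw [Set.indicator_of_notMem hχ, Set.indicator_of_notMem hχ]
    rfl

theorem exists_nat_finsum_principalBlock {M : Ideal AlgInt} (hM : IsPModular p M) (x : G) :
    ∃ n : ℕ, 0 < n ∧ ∑ᶠ χ ∈ principalBlock M G, Complex.normSq ((χ : G → ℂ) x) = (n : ℝ) := by
  haveI : Finite (IrrCharacter G) := Cfsg.Agent.Lib.Helper2.finite_irrCharacter
  haveI : Fintype (IrrCharacter G) := Fintype.ofFinite _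
  obtain ⟨n, hn, h⟩ := exists_nat_sum_principalBlock hM x
  refine ⟨n, hn, ?_⟩
  rw [← finsum_normSq_eq_sum] at h
  exact_mod_cast h

theorem finsum_normSq_le (B : Set (IrrCharacter G)) (x : G) :
    ∑ᶠ χ ∈ B, Complex.normSq ((χ : G → ℂ) x)
      ≤ (Nat.card (Subgroup.centralizer ({x} : Set G)) : ℝ) := by
  classical
  haveI := Fintype.ofFinite G
  haveI : Finite (IrrCharacter G) := Cfsg.Agent.Lib.Helper2.finite_irrCharacter
  haveI : Fintype (IrrCharacter G) := Fintype.ofFinite _
  have h1 : (∑ χ : IrrCharacter G, Complex.normSq ((χ : G → ℂ) x) : ℝ)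
      = (Nat.card (Subgroup.centralizer ({x} : Set G)) : ℝ) := by
    have h2 := column_orthogonality_self (G := G) x
    have h3 : ((∑ χ : IrrCharacter G, Complex.normSq ((χ : G → ℂ) x) : ℝ) : ℂ)
        = ∑ χ : IrrCharacter G, (χ : G → ℂ) x * conj ((χ : G → ℂ) x) := by
      rw [Complex.ofReal_sum]
      exact Finset.sum_congr rfl fun χ _ => (Complex.mul_conj _).symm
    rw [← h3] at h2
    exact_mod_cast h2
  rw [← h1, finsum_mem_def, finsum_eq_sum_of_fintype]
  apply Finset.sum_le_sum
  intro χ _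
  exact Set.indicator_le_self' (fun _ _ => Complex.normSq_nonneg _) χ

theorem finsum_sq_eq_card_iff (B : Set (IrrCharacter G)) :
    (∑ᶠ χ ∈ B, charDegree (χ : G → ℂ) ^ 2) = Nat.card G ↔ B = Set.univ := by
  classical
  haveI := Fintype.ofFinite G
  haveI : Finite (IrrCharacter G) := Cfsg.Agent.Lib.Helper2.finite_irrCharacter
  haveI : Fintype (IrrCharacter G) := Fintype.ofFinite _
  have h1 : ∑ χ : IrrCharacter G, charDegree (χ : G → ℂ) ^ 2 = Nat.card G := by
    have h2 := sum_sq_degrees (G := G)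
    have h3 : ((∑ χ : IrrCharacter G, charDegree (χ : G → ℂ) ^ 2 : ℕ) : ℂ)
        = ∑ χ : IrrCharacter G, (χ : G → ℂ) 1 ^ 2 := by
      rw [Nat.cast_sum]
      apply Finset.sum_congr rfl
      intro χ _
      rw [Nat.cast_pow, charDegree_cast (isCharacter_of_irr χ.2)]
    rw [← h3] at h2
    exact_mod_cast h2
  rw [← h1, finsum_mem_def, finsum_eq_sum_of_fintype]
  rw [Finset.sum_eq_sum_iff_of_le (fun χ _ => Set.indicator_le_self' (fun _ _ => Nat.zero_le _) χ)]
  constructor
  · intro h
    rw [Set.eq_univ_iff_forall]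
    intro χ
    by_contra hχ
    have h2 := h χ (Finset.mem_univ _)
    rw [Set.indicator_of_notMem hχ] at h2
    have h3 := charDegree_pos χ
    have h4 : 0 < charDegree (χ : G → ℂ) ^ 2 := by positivity
    omega
  · intro h χ _
    rw [h, Set.indicator_univ]

end Cfsg.Agent.Lib.Helper10.B0Quot
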