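import Cfsg.Agent.Lib.Helper24.BrauerFeit

set_option autoImplicit false
set_option linter.style.haveILetI false
set_option linter.unusedSectionVars false
open Cfsg
open Cfsg.Agent.Lib.Helper7
open Cfsg.Agent.Lib.Helper24
open scoped ComplexConjugate

namespace Cfsg.Agent.Lib.Helper10

universe u
variable {G : Type u} [Group G] {M : Ideal AlgInt} {p : ℕ}

theorem contrib_symm [Fintype G] (χ ψ : G → ℂ) :
    conj (classInner (regPart p χ) ψ) = classInner (regPart p ψ) χ := by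
  rw [classInner_conj_symm, classInner, classInner]
  congr 1
  apply Finset.sum_congr rfl
  intro g _
  by_cases hg : p ∣ orderOf g
  · simp [regPart, hg]
  · simp [regPart, hg]

/-- membership of `N * c / e` in the local ideal in terms of valuations -/
theorem memLocalIdeal_int_mul_div_iff (hM : IsPModular p M) {N : ℤ} {c e : ℕ} (hN : N ≠ 0)
    (hc : c ≠ 0) (he : e ≠ 0) :
    MemLocalIdeal M ((N : ℂ) * (c : ℂ) / (e : ℂ)) ↔
      e.factorization p < N.natAbs.factorization p + c.factorization p := by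
  have hNa : N.natAbs ≠ 0 := Int.natAbs_ne_zero.2 hN
  have key : MemLocalIdeal M (((N.natAbs * c : ℕ) : ℂ) / (e : ℂ)) ↔
      e.factorization p < N.natAbs.factorization p + c.factorization p := by
    rw [memLocalIdeal_div_iff hM (mul_ne_zero hNa hc) he, Nat.factorization_mul hNa hc]
    simp
  rw [← key]
  rcases Int.natAbs_eq N with h | h
  · have : ((N.natAbs * c : ℕ) : ℂ) = (N : ℂ) * (c : ℂ) := by
      push_cast
      congr 1
      conv_rhs => rw [h]
      simp
    rw [this]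
  · have : ((N.natAbs * c : ℕ) : ℂ) = -((N : ℂ) * (c : ℂ)) := by
      push_cast
      rw [← neg_mul]
      congr 1
      conv_rhs => rw [h]
      simp
    rw [this, neg_div]
    constructor
    · intro h; exact memLocalIdeal_neg h
    · intro h
      have := memLocalIdeal_neg h
      rwa [neg_neg] at this

/-- The contribution numbers attached to an arbitrary character of a block. -/
theorem contrib_core [Finite G] [Fintype (IrrCharacter G)] (hM : IsPModular p M)
    {B : Set (IrrCharacter G)} [DecidablePred (· ∈ B)] (hB : IsPBlock M B)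
    {χ : IrrCharacter G} (hχ : χ ∈ B) :
    ∃ n : IrrCharacter G → ℤ,
      (∀ ψ ∈ B, blockHeight p B (ψ : G → ℂ) = 0 → n ψ ≠ 0) ∧
      (0 < blockHeight p B (χ : G → ℂ) → (p : ℤ) ∣ n χ) ∧
      (p : ℤ) ^ blockHeight p B (χ : G → ℂ) * ∑ ψ ∈ Finset.univ.filter (· ∈ B), (n ψ) ^ 2
        = (p : ℤ) ^ blockDefect p B * n χ := by
  classical
  haveI := hM.2.1.isPrime
  haveI : Fact p.Prime := ⟨hM.1⟩
  haveI := Fintype.ofFinite G
  set a := (Nat.card G).factorization p with ha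
  set s := sInf ((fun χ : IrrCharacter G => (charDegree (χ : G → ℂ)).factorization p) '' B) with hs
  have hsa : s ≤ a := sInf_le_factorization_card hB p
  have hd : blockDefect p B = a - s := rfl
  set h := blockHeight p B (χ : G → ℂ) with hh
  have ht : (charDegree (χ : G → ℂ)).factorization p = s + h := by
    have := sInf_le_of_mem p hχ
    rw [hh, blockHeight]
    omega
  have hN := fun ψ : IrrCharacter G => exists_int_contrib (p := p) χ ψ
  choose N hN using hN
  have hp0 : (p : ℤ) ≠ 0 := by exact_mod_cast hM.1.ne_zero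
  have hpc0 : (p : ℂ) ≠ 0 := by exact_mod_cast hM.1.ne_zero
  -- symmetry
  have hN' : ∀ ψ : IrrCharacter G, (p : ℂ) ^ a
      * classInner (regPart p (ψ : G → ℂ)) (χ : G → ℂ) = N ψ := by
    intro ψ
    rw [← contrib_symm]
    have h1 := congrArg conj (hN ψ)
    rw [map_mul, map_pow, Complex.conj_natCast] at h1
    rw [h1]
    simp
  have hdv : ∀ ψ : IrrCharacter G, ((p ^ (s + h) : ℕ) : ℤ) ∣ N ψ := by
    intro ψ
    have h1 := contrib_dvd hM ψ χ (hN' ψ)
    rwa [ht] at h1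
  choose n hn using hdv
  have hn' : ∀ ψ, N ψ = (p : ℤ) ^ (s + h) * n ψ := by
    intro ψ; rw [hn ψ]; push_cast; ring
  have hnz : ∀ ψ ∈ B, blockHeight p B (ψ : G → ℂ) = 0 → n ψ ≠ 0 := by
    intro ψ hψ h0 hz
    have h1 := hN' ψ
    rw [hn' ψ, hz, mul_zero, Int.cast_zero] at h1
    rcases mul_eq_zero.1 h1 with h | h
    · exact pow_ne_zero _ hpc0 h
    · exact contrib_ne_zero hM hB hψ h0 hχ h
  have hsum : (p : ℤ) ^ h * ∑ ψ ∈ Finset.univ.filter (· ∈ B), (n ψ) ^ 2
        = (p : ℤ) ^ blockDefect p B * n χ := by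
    have hpars := contrib_parseval (p := p) χ
    have h1 : ((∑ ψ : IrrCharacter G, (N ψ) ^ 2 : ℤ) : ℂ) = (((p : ℤ) ^ a * N χ : ℤ) : ℂ) := by
      push_cast
      rw [← hN χ, ← hpars, Finset.mul_sum, Finset.mul_sum]
      apply Finset.sum_congr rfl
      intro ψ _
      have h2 : conj ((N ψ : ℂ)) = (N ψ : ℂ) := by simp
      have h3 : (N ψ : ℂ) ^ 2 = (N ψ : ℂ) * conj ((N ψ : ℂ)) := by rw [h2, pow_two]
      rw [h3, ← hN ψ, map_mul, map_pow, Complex.conj_natCast]
      ring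
    have h2 : ∑ ψ : IrrCharacter G, (N ψ) ^ 2 = (p : ℤ) ^ a * N χ := by exact_mod_cast h1
    have h3 : ∑ ψ : IrrCharacter G, (N ψ) ^ 2
        = (p : ℤ) ^ (2 * (s + h)) * ∑ ψ ∈ Finset.univ.filter (· ∈ B), (n ψ) ^ 2 := by
      rw [Finset.sum_filter, Finset.mul_sum]
      apply Finset.sum_congr rfl
      intro ψ _
      by_cases hψ : ψ ∈ B
      · rw [if_pos hψ, hn' ψ]; ring
      · rw [if_neg hψ, mul_zero]
        have h4 := hN ψ
        rw [contrib_eq_zero hM hB hχ hψ, mul_zero] at h4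
        have h5 : N ψ = 0 := by exact_mod_cast h4.symm
        rw [h5]; ring
    rw [h3, hn' χ] at h2
    have h4 : (p : ℤ) ^ a = (p : ℤ) ^ s * (p : ℤ) ^ (a - s) := by
      rw [← pow_add]; congr 1; omega
    rw [h4] at h2
    have h5 : (p : ℤ) ^ (2 * s + h) * ((p : ℤ) ^ h * ∑ ψ ∈ Finset.univ.filter (· ∈ B), (n ψ) ^ 2)
        = (p : ℤ) ^ (2 * s + h) * ((p : ℤ) ^ (a - s) * n χ) := by
      have e1 : (p : ℤ) ^ (2 * s + h) * ((p : ℤ) ^ h * ∑ ψ ∈ Finset.univ.filter (· ∈ B), (n ψ) ^ 2)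
          = (p : ℤ) ^ (2 * (s + h)) * ∑ ψ ∈ Finset.univ.filter (· ∈ B), (n ψ) ^ 2 := by ring
      rw [e1, h2]; ring
    have h6 := mul_left_cancel₀ (pow_ne_zero _ hp0) h5
    rw [h6, hd]
  refine ⟨n, hnz, ?_, hsum⟩
  intro hpos
  obtain ⟨χ₁, hχ₁, hχ₁s⟩ := exists_height_zero hB p
  have hχ₁0 : blockHeight p B (χ₁ : G → ℂ) = 0 := by
    rw [blockHeight]; omega
  have hn1 : n χ₁ ≠ 0 := hnz χ₁ hχ₁ hχ₁0
  have hnχ : n χ ≠ 0 := by
    intro hz
    rw [hz, mul_zero] at hsum
    have h0 := (mul_eq_zero.1 hsum).resolve_left (pow_ne_zero _ hp0)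
    have h1 := (Finset.sum_eq_zero_iff_of_nonneg (fun ψ _ => sq_nonneg (n ψ))).1 h0 χ₁
      (by simp [hχ₁])
    exact hn1 ((pow_eq_zero_iff two_ne_zero).1 h1)
  have hG0 : (Nat.card G : ℂ) ≠ 0 := by exact_mod_cast Nat.card_pos.ne'
  have hpn0 : p ≠ 0 := hM.1.ne_zero
  have hOm : ∀ ψ : IrrCharacter G, Om (regCoeff p (χ : G → ℂ)) ψ
      = (n ψ : ℂ) * ((Nat.card G * p ^ (s + h) : ℕ) : ℂ)
        / ((p ^ a * charDegree (ψ : G → ℂ) : ℕ) : ℂ) := by
    intro ψ
    have h1 := hN ψ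
    have hd0 : (charDegree (ψ : G → ℂ) : ℂ) ≠ 0 := by exact_mod_cast (charDegree_pos ψ).ne'
    rw [classInner_regPart, ← charDegree_cast (isCharacter_of_irr ψ.2), hn' ψ] at h1
    have hc : ((p ^ a * charDegree (ψ : G → ℂ) : ℕ) : ℂ) ≠ 0 := by
      push_cast; exact mul_ne_zero (pow_ne_zero _ hpc0) hd0
    rw [eq_div_iff hc]
    push_cast at h1 ⊢
    field_simp at h1
    linear_combination h1
  have hcong : MemLocalIdeal M (Om (regCoeff p (χ : G → ℂ)) χ - Om (regCoeff p (χ : G → ℂ)) χ₁) :=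
    centralSubring_congr ⟨_, isClassFunction_regCoeff (isClassFunction_irr χ),
      memLocalRing_regCoeff (isCharacter_of_irr χ.2), rfl⟩ (sameBlock_of_mem hB hχ hχ₁)
  have hc1 : Nat.card G * p ^ (s + h) ≠ 0 := mul_ne_zero Nat.card_pos.ne' (pow_ne_zero _ hpn0)
  have hfc : (Nat.card G * p ^ (s + h)).factorization p = a + (s + h) := by
    rw [Nat.factorization_mul Nat.card_pos.ne' (pow_ne_zero _ hpn0), Nat.factorization_pow]
    simp only [Finsupp.coe_add, Finsupp.coe_smul, Pi.add_apply, Pi.smul_apply, smul_eq_mul,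
      hM.1.factorization_self, mul_one, ha]
  have hfe : ∀ ψ : IrrCharacter G, (p ^ a * charDegree (ψ : G → ℂ)).factorization p
      = a + (charDegree (ψ : G → ℂ)).factorization p := by
    intro ψ
    rw [Nat.factorization_mul (pow_ne_zero _ hpn0) (charDegree_pos ψ).ne', Nat.factorization_pow]
    simp only [Finsupp.coe_add, Finsupp.coe_smul, Pi.add_apply, Pi.smul_apply, smul_eq_mul,
      hM.1.factorization_self, mul_one]
  have h1 : MemLocalIdeal M (Om (regCoeff p (χ : G → ℂ)) χ₁) := by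
    rw [hOm χ₁, memLocalIdeal_int_mul_div_iff hM hn1 hc1
      (mul_ne_zero (pow_ne_zero _ hpn0) (charDegree_pos χ₁).ne'), hfc, hfe, hχ₁s]
    omega
  have h2 : MemLocalIdeal M (Om (regCoeff p (χ : G → ℂ)) χ) := by
    have := memLocalIdeal_add hcong h1
    rwa [sub_add_cancel] at this
  rw [hOm χ, memLocalIdeal_int_mul_div_iff hM hnχ hc1
      (mul_ne_zero (pow_ne_zero _ hpn0) (charDegree_pos χ).ne'), hfc, hfe, ht] at h2
  have h3 : 0 < (n χ).natAbs.factorization p := by omega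
  have h4 : p ∣ (n χ).natAbs := Nat.dvd_of_factorization_pos h3.ne'
  exact Int.natCast_dvd.2 h4

/-- A character of positive height `h` in a block of defect `d` has `h + 2 ≤ d`, and the number
of height zero characters is then at most `p ^ (2 (d - h)) / 4`. -/
theorem height_bound [Finite G] [Fintype (IrrCharacter G)] (hM : IsPModular p M)
    {B : Set (IrrCharacter G)} [DecidablePred (· ∈ B)] (hB : IsPBlock M B)
    {χ : IrrCharacter G} (hχ : χ ∈ B) (hpos : 0 < blockHeight p B (χ : G → ℂ)) :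
    blockHeight p B (χ : G → ℂ) + 2 ≤ blockDefect p B ∧
    4 * (Finset.univ.filter (fun ψ : IrrCharacter G =>
        ψ ∈ B ∧ blockHeight p B (ψ : G → ℂ) = 0)).card
      ≤ p ^ (2 * (blockDefect p B - blockHeight p B (χ : G → ℂ))) := by
  classical
  haveI := hM.2.1.isPrime
  obtain ⟨n, hnz, hdvd, hsum⟩ := contrib_core hM hB hχ
  set h := blockHeight p B (χ : G → ℂ) with hh
  set d := blockDefect p B with hd
  set Z := Finset.univ.filter (fun ψ : IrrCharacter G =>
        ψ ∈ B ∧ blockHeight p B (ψ : G → ℂ) = 0) with hZ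
  set S := ∑ ψ ∈ Finset.univ.filter (· ∈ B), (n ψ) ^ 2 with hS
  have hp1 : (1 : ℤ) < p := by exact_mod_cast hM.1.one_lt
  have hp0 : (0 : ℤ) < p := by linarith
  obtain ⟨χ₁, hχ₁, hχ₁s⟩ := exists_height_zero hB p
  have hχ₁0 : blockHeight p B (χ₁ : G → ℂ) = 0 := by
    rw [blockHeight]; omega
  have hZ1 : 1 ≤ Z.card := by
    apply Finset.card_pos.2
    exact ⟨χ₁, by simp [hZ, hχ₁, hχ₁0]⟩
  -- lower bound for S
  have hSge : (n χ) ^ 2 + (Z.card : ℤ) ≤ S := by
    have hχF : χ ∈ Finset.univ.filter (· ∈ B) := by simp [hχ]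
    rw [hS, ← Finset.add_sum_erase _ _ hχF]
    have hsub : Z ⊆ (Finset.univ.filter (· ∈ B)).erase χ := by
      intro ψ hψ
      rw [hZ, Finset.mem_filter] at hψ
      rw [Finset.mem_erase, Finset.mem_filter]
      refine ⟨?_, Finset.mem_univ _, hψ.2.1⟩
      rintro rfl
      omega
    have h1 : ∑ ψ ∈ Z, (1 : ℤ) ≤ ∑ ψ ∈ Z, (n ψ) ^ 2 := by
      apply Finset.sum_le_sum
      intro ψ hψ
      rw [hZ, Finset.mem_filter] at hψ
      have h0 := hnz ψ hψ.2.1 hψ.2.2
      have : 0 < (n ψ) ^ 2 := by positivity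
      omega
    have h2 : ∑ ψ ∈ Z, (n ψ) ^ 2 ≤ ∑ ψ ∈ (Finset.univ.filter (· ∈ B)).erase χ, (n ψ) ^ 2 :=
      Finset.sum_le_sum_of_subset_of_nonneg hsub (fun ψ _ _ => sq_nonneg _)
    simp only [Finset.sum_const, nsmul_eq_mul, mul_one] at h1
    linarith
  have hZ1' : (1 : ℤ) ≤ (Z.card : ℤ) := by exact_mod_cast hZ1
  have hSpos : 0 < S := by nlinarith [sq_nonneg (n χ)]
  have hnpos : 0 < n χ := by
    have h1 : 0 < (p : ℤ) ^ h * S := by positivity
    rw [hsum] at h1
    have h2 : 0 < (p : ℤ) ^ d := by positivity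
    exact (pos_iff_pos_of_mul_pos h1).1 h2
  have hle : h ≤ d := by
    by_contra hlt
    push Not at hlt
    have h1 : (p : ℤ) ^ h = (p : ℤ) ^ d * (p : ℤ) ^ (h - d) := by
      rw [← pow_add]; congr 1; omega
    rw [h1, mul_assoc] at hsum
    have h2 := mul_left_cancel₀ (pow_ne_zero _ hp0.ne') hsum
    have h3 : (1 : ℤ) ≤ (p : ℤ) ^ (h - d) := one_le_pow₀ hp1.le
    nlinarith
  have h1 : (p : ℤ) ^ d = (p : ℤ) ^ h * (p : ℤ) ^ (d - h) := by
    rw [← pow_add]; congr 1; omega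
  rw [h1, mul_assoc] at hsum
  have hS2 := mul_left_cancel₀ (pow_ne_zero _ hp0.ne') hsum
  set q := (p : ℤ) ^ (d - h) with hq
  have hnq : n χ < q := by nlinarith
  have hpn : (p : ℤ) ≤ n χ := Int.le_of_dvd hnpos (hdvd hpos)
  constructor
  · by_contra hlt
    push Not at hlt
    have h2 : d - h ≤ 1 := by omega
    have h3 : q ≤ (p : ℤ) ^ 1 := pow_le_pow_right₀ hp1.le h2
    rw [pow_one] at h3
    linarith
  · have h2 : (4 : ℤ) * (Z.card : ℤ) ≤ q ^ 2 := by
      nlinarith [sq_nonneg (q - 2 * n χ)]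
    have h3 : q ^ 2 = ((p ^ (2 * (d - h)) : ℕ) : ℤ) := by
      rw [hq]; push_cast; ring
    rw [h3] at h2
    exact_mod_cast h2

/-- Brauer–Feit: if a block of defect `d` contains a character of positive height then
`2 k(B) ≤ p ^ (2 d - 2)`. -/
theorem two_mul_card_le [Finite G] [Fintype (IrrCharacter G)] (hM : IsPModular p M)
    {B : Set (IrrCharacter G)} [DecidablePred (· ∈ B)] (hB : IsPBlock M B)
    {χ : IrrCharacter G} (hχ : χ ∈ B) (hpos : 0 < blockHeight p B (χ : G → ℂ)) :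
    2 * (Finset.univ.filter (· ∈ B)).card ≤ p ^ (2 * blockDefect p B - 2) := by
  classical
  haveI := hM.2.1.isPrime
  obtain ⟨hb1, hb2⟩ := height_bound hM hB hχ hpos
  have hw := brauer_feit_weighted hM hB
  set h := blockHeight p B (χ : G → ℂ) with hh
  set d := blockDefect p B with hd
  set Z := Finset.univ.filter (fun ψ : IrrCharacter G =>
        ψ ∈ B ∧ blockHeight p B (ψ : G → ℂ) = 0) with hZ
  set P := Finset.univ.filter (fun ψ : IrrCharacter G =>
        ψ ∈ B ∧ ¬ blockHeight p B (ψ : G → ℂ) = 0) with hP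
  have hp1 : 1 < p := hM.1.one_lt
  obtain ⟨χ₁, hχ₁, hχ₁s⟩ := exists_height_zero hB p
  have hχ₁0 : blockHeight p B (χ₁ : G → ℂ) = 0 := by
    rw [blockHeight]; omega
  have hZ1 : 1 ≤ Z.card := by
    apply Finset.card_pos.2
    exact ⟨χ₁, by simp [hZ, hχ₁, hχ₁0]⟩
  have hcard : (Finset.univ.filter (· ∈ B)).card = Z.card + P.card := by
    rw [hZ, hP, ← Finset.filter_filter, ← Finset.filter_filter]
    exact (Finset.card_filter_add_card_filter_not _).symm
  have hsplit : ∑ ψ ∈ Finset.univ.filter (· ∈ B), p ^ (2 * blockHeight p B (ψ : G → ℂ))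
      = ∑ ψ ∈ Z, p ^ (2 * blockHeight p B (ψ : G → ℂ))
        + ∑ ψ ∈ P, p ^ (2 * blockHeight p B (ψ : G → ℂ)) := by
    rw [hZ, hP, ← Finset.filter_filter, ← Finset.filter_filter]
    exact (Finset.sum_filter_add_sum_filter_not _ _ _).symm
  have hZs : Z.card ≤ ∑ ψ ∈ Z, p ^ (2 * blockHeight p B (ψ : G → ℂ)) := by
    have : ∑ ψ ∈ Z, 1 ≤ ∑ ψ ∈ Z, p ^ (2 * blockHeight p B (ψ : G → ℂ)) := by
      apply Finset.sum_le_sum
      intro ψ _
      exact Nat.one_le_pow _ _ (by omega)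
    simpa using this
  have hPs : P.card * p ^ 2 ≤ ∑ ψ ∈ P, p ^ (2 * blockHeight p B (ψ : G → ℂ)) := by
    have : ∑ ψ ∈ P, p ^ 2 ≤ ∑ ψ ∈ P, p ^ (2 * blockHeight p B (ψ : G → ℂ)) := by
      apply Finset.sum_le_sum
      intro ψ hψ
      rw [hP, Finset.mem_filter] at hψ
      apply Nat.pow_le_pow_right (by omega)
      have := hψ.2.2
      omega
    simpa using this
  have e1 : p ^ (2 * d) = p ^ (2 * d - 2) * p ^ 2 := by
    rw [← pow_add]; congr 1; omega
  have h4P : 4 * P.card ≤ p ^ (2 * d - 2) := by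
    have h1 : 4 * P.card * p ^ 2 ≤ p ^ (2 * d - 2) * p ^ 2 := by
      rw [← e1]
      rw [hsplit] at hw
      nlinarith
    exact Nat.le_of_mul_le_mul_right h1 (by positivity)
  have h4Z : 4 * Z.card ≤ p ^ (2 * d - 2) := by
    refine hb2.trans ?_
    apply Nat.pow_le_pow_right (by omega)
    omega
  rw [hcard]
  omega

end Cfsg.Agent.Lib.Helper10
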