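import Mathlib

set_option autoImplicit false

namespace Cfsg.Agent.Lib.Helper10.TransvC

open Matrix

/-- Abstract part: if the centre of a Sylow 2-subgroup `T` of `C_G(z)` is `{1, z}`, then `T` is Sylow in `G`. -/
theorem sylow_of_center {G : Type*} [Group G] [Finite G] (z : G) (hz1 : z ≠ 1)
    (T : Sylow 2 (Subgroup.centralizer ({z} : Set G)))
    (hzT : ∃ zc ∈ T, (zc : G) = z)
    (hT : ∀ w : Subgroup.centralizer ({z} : Set G), w ∈ T → (∀ t ∈ T, t * w = w * t) →
      w = 1 ∨ (w : G) = z) :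
    ¬ 2 ∣ ((T : Subgroup (Subgroup.centralizer ({z} : Set G))).map
      (Subgroup.subtype (Subgroup.centralizer ({z} : Set G)))).index := by
  classical
  have : Fact (Nat.Prime 2) := ⟨Nat.prime_two⟩
  have hTp : IsPGroup 2 ((T : Subgroup (Subgroup.centralizer ({z} : Set G))).map
      (Subgroup.subtype (Subgroup.centralizer ({z} : Set G)))) := T.isPGroup'.map _
  obtain ⟨S, hS⟩ := hTp.exists_le_sylow
  by_cases hEq : ((T : Subgroup (Subgroup.centralizer ({z} : Set G))).map
      (Subgroup.subtype (Subgroup.centralizer ({z} : Set G)))) = S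
  · rw [hEq]; exact S.not_dvd_index
  exfalso
  have hlt := lt_of_le_of_ne hS hEq
  have : Group.IsNilpotent S := S.isPGroup'.isNilpotent
  have hnc := Group.normalizerCondition_of_isNilpotent (G := S)
  have h1 : (((T : Subgroup (Subgroup.centralizer ({z} : Set G))).map
      (Subgroup.subtype (Subgroup.centralizer ({z} : Set G)))).subgroupOf S) < ⊤ := by
    rw [lt_top_iff_ne_top, Ne, Subgroup.subgroupOf_eq_top]
    exact not_le_of_gt hlt
  have h2 := hnc _ h1
  obtain ⟨x, hxN, hxT⟩ := SetLike.exists_of_lt h2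
  rw [Subgroup.mem_normalizer_iff] at hxN
  rw [Subgroup.mem_subgroupOf] at hxT
  have hN : ∀ h : G, h ∈ ((T : Subgroup (Subgroup.centralizer ({z} : Set G))).map
      (Subgroup.subtype (Subgroup.centralizer ({z} : Set G)))) →
      (x : G) * h * (x : G)⁻¹ ∈ ((T : Subgroup (Subgroup.centralizer ({z} : Set G))).map
      (Subgroup.subtype (Subgroup.centralizer ({z} : Set G)))) := by
    intro h hh
    have := (hxN ⟨h, hS hh⟩).1 (by rw [Subgroup.mem_subgroupOf]; exact hh)
    rw [Subgroup.mem_subgroupOf] at this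
    simpa using this
  have hN' : ∀ h : G, h ∈ ((T : Subgroup (Subgroup.centralizer ({z} : Set G))).map
      (Subgroup.subtype (Subgroup.centralizer ({z} : Set G)))) →
      (x : G)⁻¹ * h * (x : G) ∈ ((T : Subgroup (Subgroup.centralizer ({z} : Set G))).map
      (Subgroup.subtype (Subgroup.centralizer ({z} : Set G)))) := by
    intro h hh
    have hmem : (x : G)⁻¹ * h * (x : G) ∈ (S : Subgroup G) :=
      S.1.mul_mem (S.1.mul_mem (S.1.inv_mem x.2) (hS hh)) x.2
    have := (hxN ⟨(x : G)⁻¹ * h * (x : G), hmem⟩).2 (by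
      rw [Subgroup.mem_subgroupOf]
      have e1 : (((x * ⟨(x : G)⁻¹ * h * (x : G), hmem⟩ * x⁻¹ : S)) : G) = h := by
        simp [mul_assoc]
      rw [e1]; exact hh)
    rw [Subgroup.mem_subgroupOf] at this
    exact this
  obtain ⟨zc, hzcT, hzc⟩ := hzT
  have hzT' : z ∈ ((T : Subgroup (Subgroup.centralizer ({z} : Set G))).map
      (Subgroup.subtype (Subgroup.centralizer ({z} : Set G)))) :=
    Subgroup.mem_map.2 ⟨zc, hzcT, hzc⟩
  obtain ⟨w, hwT, hw⟩ := Subgroup.mem_map.1 (hN z hzT')
  have hw' : (w : G) = (x : G) * z * (x : G)⁻¹ := hw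
  have hcen : ∀ t ∈ T, t * w = w * t := by
    intro t ht
    apply Subtype.ext
    have htT' : (t : G) ∈ ((T : Subgroup (Subgroup.centralizer ({z} : Set G))).map
      (Subgroup.subtype (Subgroup.centralizer ({z} : Set G)))) :=
      Subgroup.mem_map.2 ⟨t, ht, rfl⟩
    obtain ⟨u, _, hu⟩ := Subgroup.mem_map.1 (hN' _ htT')
    have hu' : (u : G) = (x : G)⁻¹ * (t : G) * (x : G) := hu
    have huz : (u : G) * z = z * (u : G) := Subgroup.mem_centralizer_singleton_iff.1 u.2
    rw [hu'] at huz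
    show (t : G) * (w : G) = (w : G) * (t : G)
    rw [hw']
    calc (t : G) * ((x : G) * z * (x : G)⁻¹)
        = (x : G) * (((x : G)⁻¹ * (t : G) * (x : G)) * z) * (x : G)⁻¹ := by group
      _ = (x : G) * (z * ((x : G)⁻¹ * (t : G) * (x : G))) * (x : G)⁻¹ := by rw [huz]
      _ = ((x : G) * z * (x : G)⁻¹) * (t : G) := by group
  have hxC : (x : G) ∈ Subgroup.centralizer ({z} : Set G) := by
    rw [Subgroup.mem_centralizer_singleton_iff]
    rcases hT w hwT hcen with h | h
    · exfalso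
      apply hz1
      have : (w : G) = 1 := by rw [h]; rfl
      rw [hw'] at this
      have h3 : z = (x : G)⁻¹ * ((x : G) * z * (x : G)⁻¹) * (x : G) := by group
      rw [h3, this]; group
    · rw [hw'] at h
      calc (x : G) * z = ((x : G) * z * (x : G)⁻¹) * (x : G) := by group
        _ = z * (x : G) := by rw [h]
  have hR : IsPGroup 2 ((S : Subgroup G).subgroupOf (Subgroup.centralizer ({z} : Set G))) :=
    S.isPGroup'.comap_subtype
  have hTR : (T : Subgroup (Subgroup.centralizer ({z} : Set G))) ≤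
      (S : Subgroup G).subgroupOf (Subgroup.centralizer ({z} : Set G)) := by
    intro t ht
    rw [Subgroup.mem_subgroupOf]
    exact hS (Subgroup.mem_map.2 ⟨t, ht, rfl⟩)
  have hRT := T.is_maximal' hR hTR
  have hxT2 : (⟨(x : G), hxC⟩ : Subgroup.centralizer ({z} : Set G)) ∈
      (T : Subgroup (Subgroup.centralizer ({z} : Set G))) := by
    rw [← hRT, Subgroup.mem_subgroupOf]
    exact x.2
  exact hxT (Subgroup.mem_map.2 ⟨_, hxT2, rfl⟩)

local notation "M5" => Matrix (Fin 5) (Fin 5) (ZMod 2)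
local notation "SL5" => Matrix.SpecialLinearGroup (Fin 5) (ZMod 2)

def qm (c a2 a3 a4 b2 b3 b4 : ZMod 2) : M5 :=
  !![1, c, a2, a3, a4; 0,1,0,0,0; 0,b2,1,0,0; 0,b3,0,1,0; 0,b4,0,0,1]

theorem qm_sq (c a2 a3 a4 b2 b3 b4 : ZMod 2) :
    qm c a2 a3 a4 b2 b3 b4 * qm c a2 a3 a4 b2 b3 b4 = qm (a2*b2+a3*b3+a4*b4) 0 0 0 0 0 0 := by
  ext i j
  fin_cases i <;> fin_cases j <;>
    simp [qm, Matrix.mul_apply, Fin.sum_univ_five, CharTwo.add_self_eq_zero]

theorem qm_zero : qm 0 0 0 0 0 0 0 = 1 := by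
  ext i j
  fin_cases i <;> fin_cases j <;> simp [qm]

theorem qm_one : qm 1 0 0 0 0 0 0 = transvection 0 1 1 := by
  ext i j
  fin_cases i <;> fin_cases j <;> simp [qm, transvection]

theorem qm_pow4 (c a2 a3 a4 b2 b3 b4 : ZMod 2) : qm c a2 a3 a4 b2 b3 b4 ^ 4 = 1 := by
  have : qm c a2 a3 a4 b2 b3 b4 ^ 4 =
      (qm c a2 a3 a4 b2 b3 b4 * qm c a2 a3 a4 b2 b3 b4) *
      (qm c a2 a3 a4 b2 b3 b4 * qm c a2 a3 a4 b2 b3 b4) := by
    simp [pow_succ, mul_assoc]
  rw [this, qm_sq, qm_sq]
  simpa using qm_zero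

theorem zmod2_cases (x : ZMod 2) : x = 0 ∨ x = 1 := by
  revert x; decide

theorem comm_single (g : M5) (i j : Fin 5)
    (h : g * transvection i j 1 = transvection i j 1 * g) :
    (∀ a, a ≠ i → g a i = 0) ∧ (∀ b, b ≠ j → g j b = 0) ∧ g i i = g j j := by
  have h' : g * single i j 1 = single i j 1 * g := by
    simpa [transvection, mul_add, add_mul] using h
  refine ⟨fun a ha => ?_, fun b hb => ?_, ?_⟩
  · have := congrFun (congrFun h' a) j
    rw [mul_single_apply_same, single_mul_apply_of_ne _ _ _ _ _ ha] at this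
    simpa using this
  · have := congrFun (congrFun h' i) b
    rw [mul_single_apply_of_ne _ _ _ _ _ hb, single_mul_apply_same] at this
    simpa using this.symm
  · have := congrFun (congrFun h' i) j
    rw [mul_single_apply_same, single_mul_apply_same] at this
    simpa using this

theorem tv_comm (i j k l : Fin 5) (h1 : j ≠ k) (h2 : l ≠ i) :
    (transvection i j 1 : M5) * transvection k l 1 = transvection k l 1 * transvection i j 1 := by
  simp [transvection, mul_add, add_mul, single_mul_single_of_ne _ _ _ _ h1,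
    single_mul_single_of_ne _ _ _ _ h2, add_comm, add_left_comm]

theorem cs_facts (s : SL5) (hs : (s : M5) = transvection 0 1 1) (g : SL5)
    (hg : g ∈ Subgroup.centralizer ({s} : Set SL5)) :
    (∀ a, a ≠ 0 → (g : M5) a 0 = 0) ∧ (∀ b, b ≠ 1 → (g : M5) 1 b = 0) ∧
      (g : M5) 0 0 = (g : M5) 1 1 := by
  rw [Subgroup.mem_centralizer_singleton_iff] at hg
  have h2 : (g : M5) * (s : M5) = (s : M5) * (g : M5) :=
    congrArg (fun x : SL5 => (x : M5)) hg
  rw [hs] at h2
  exact comm_single _ 0 1 h2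

def f35 : Fin 3 → Fin 5 := ![2, 3, 4]

theorem f35_ne0 (i : Fin 3) : f35 i ≠ 0 := by fin_cases i <;> simp [f35]
theorem f35_ne1 (i : Fin 3) : f35 i ≠ 1 := by fin_cases i <;> simp [f35]
theorem f35_inj : Function.Injective f35 := by decide

def phi (s : SL5) (hs : (s : M5) = transvection 0 1 1) :
    Subgroup.centralizer ({s} : Set SL5) →* Matrix (Fin 3) (Fin 3) (ZMod 2) where
  toFun g := ((g : SL5) : M5).submatrix f35 f35
  map_one' := by
    show (1 : M5).submatrix f35 f35 = 1
    exact Matrix.submatrix_one f35 f35_inj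
  map_mul' g h := by
    have hg := cs_facts s hs g.1 g.2
    have hh := cs_facts s hs h.1 h.2
    ext i j
    have e1 : ((g : SL5) : M5) (f35 i) 0 = 0 := hg.1 _ (f35_ne0 i)
    have e2 : ((h : SL5) : M5) 1 (f35 j) = 0 := hh.2.1 _ (f35_ne1 j)
    show (((g : SL5) : M5) * ((h : SL5) : M5)) (f35 i) (f35 j) =
      (((g : SL5) : M5).submatrix f35 f35 * ((h : SL5) : M5).submatrix f35 f35) i j
    rw [mul_apply, mul_apply, Fin.sum_univ_five, Fin.sum_univ_three, e1, e2]
    simp [f35]

theorem ker_form (s : SL5) (hs : (s : M5) = transvection 0 1 1)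
    (g : Subgroup.centralizer ({s} : Set SL5)) (hg : g ∈ (phi s hs).ker) :
    ((g : SL5) : M5) = qm (((g : SL5) : M5) 0 1) (((g : SL5) : M5) 0 2) (((g : SL5) : M5) 0 3)
      (((g : SL5) : M5) 0 4) (((g : SL5) : M5) 2 1) (((g : SL5) : M5) 3 1)
      (((g : SL5) : M5) 4 1) := by
  have hf := cs_facts s hs g.1 g.2
  rw [MonoidHom.mem_ker] at hg
  have hmid : ∀ i j : Fin 3, ((g : SL5) : M5) (f35 i) (f35 j) =
      (1 : Matrix (Fin 3) (Fin 3) (ZMod 2)) i j :=
    fun i j => congrFun (congrFun hg i) j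
  have h00 : ((g : SL5) : M5) 0 0 = 1 := by
    rcases zmod2_cases (((g : SL5) : M5) 0 0) with h | h
    · exfalso
      have hd : (((g : SL5) : M5)).det = 0 := by
        apply Matrix.det_eq_zero_of_column_eq_zero 0
        intro a
        by_cases ha : a = 0
        · rw [ha]; exact h
        · exact hf.1 a ha
      have hd1 : (((g : SL5) : M5)).det = 1 := (g : SL5).2
      rw [hd] at hd1
      exact zero_ne_one hd1
    · exact h
  have h11 : ((g : SL5) : M5) 1 1 = 1 := by rw [← hf.2.2]; exact h00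
  have m22 := hmid 0 0
  have m23 := hmid 0 1
  have m24 := hmid 0 2
  have m32 := hmid 1 0
  have m33 := hmid 1 1
  have m34 := hmid 1 2
  have m42 := hmid 2 0
  have m43 := hmid 2 1
  have m44 := hmid 2 2
  simp [f35] at m22 m23 m24 m32 m33 m34 m42 m43 m44
  have c1 := hf.1 1 (by decide)
  have c2 := hf.1 2 (by decide)
  have c3 := hf.1 3 (by decide)
  have c4 := hf.1 4 (by decide)
  have r0 := hf.2.1 0 (by decide)
  have r2 := hf.2.1 2 (by decide)
  have r3 := hf.2.1 3 (by decide)
  have r4 := hf.2.1 4 (by decide)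
  ext i j
  fin_cases i <;> fin_cases j <;> simp [qm, *]

theorem isPGroup_ker (s : SL5) (hs : (s : M5) = transvection 0 1 1) :
    IsPGroup 2 (phi s hs).ker := by
  rintro ⟨g, hg⟩
  refine ⟨2, ?_⟩
  apply Subtype.ext
  apply Subtype.ext
  apply Subtype.ext
  show (((g : SL5) : M5)) ^ (2 ^ 2) = 1
  rw [ker_form s hs g hg]
  exact qm_pow4 _ _ _ _ _ _ _

def tv (i j : Fin 5) (hij : i ≠ j) : SL5 :=
  ⟨transvection i j 1, det_transvection_of_ne i j hij 1⟩

theorem tvQ (s : SL5) (hs : (s : M5) = transvection 0 1 1) (i j : Fin 5) (hij : i ≠ j)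
    (hj0 : j ≠ 0) (hi1 : i ≠ 1) (h : i = 0 ∨ j = 1) :
    ∃ q : Subgroup.centralizer ({s} : Set SL5), q ∈ (phi s hs).ker ∧
      ((q : SL5) : M5) = transvection i j 1 := by
  have hmem : tv i j hij ∈ Subgroup.centralizer ({s} : Set SL5) := by
    apply Subgroup.mem_centralizer_singleton_iff.2
    apply Subtype.ext
    show (transvection i j 1 : M5) * (s : M5) = (s : M5) * transvection i j 1
    rw [hs]
    exact tv_comm i j 0 1 hj0 hi1.symm
  refine ⟨⟨_, hmem⟩, ?_, rfl⟩
  rw [MonoidHom.mem_ker]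
  ext a b
  show (transvection i j 1 : M5) (f35 a) (f35 b) = (1 : Matrix (Fin 3) (Fin 3) (ZMod 2)) a b
  have h1 : (single i j 1 : M5) (f35 a) (f35 b) = 0 := by
    rw [single_apply]
    rw [if_neg]
    rintro ⟨h1, h2⟩
    rcases h with h | h
    · exact f35_ne0 a (by rw [← h1, h])
    · exact f35_ne1 b (by rw [← h2, h])
  have h2 : (1 : M5) (f35 a) (f35 b) = (1 : Matrix (Fin 3) (Fin 3) (ZMod 2)) a b := by
    have := congrFun (congrFun (Matrix.submatrix_one (α := ZMod 2) f35 f35_inj) a) b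
    exact this
  rw [transvection, Matrix.add_apply, h1, h2, add_zero]

theorem central_of_commQ (s : SL5) (hs : (s : M5) = transvection 0 1 1)
    (g : Subgroup.centralizer ({s} : Set SL5))
    (hg : ∀ q ∈ (phi s hs).ker, q * g = g * q) : g = 1 ∨ (g : SL5) = s := by
  have hcomm : ∀ i j : Fin 5, i ≠ j → j ≠ 0 → i ≠ 1 → (i = 0 ∨ j = 1) →
      (∀ a, a ≠ i → ((g : SL5) : M5) a i = 0) ∧ (∀ b, b ≠ j → ((g : SL5) : M5) j b = 0) ∧
        ((g : SL5) : M5) i i = ((g : SL5) : M5) j j := by
    intro i j hij hj0 hi1 h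
    obtain ⟨q, hq, hqm⟩ := tvQ s hs i j hij hj0 hi1 h
    have h1 := hg q hq
    have h2 : ((q : SL5) : M5) * ((g : SL5) : M5) = ((g : SL5) : M5) * ((q : SL5) : M5) :=
      congrArg (fun x : Subgroup.centralizer ({s} : Set SL5) => ((x : SL5) : M5)) h1
    rw [hqm] at h2
    exact comm_single _ i j h2.symm
  have h02 := hcomm 0 2 (by decide) (by decide) (by decide) (Or.inl rfl)
  have h03 := hcomm 0 3 (by decide) (by decide) (by decide) (Or.inl rfl)
  have h04 := hcomm 0 4 (by decide) (by decide) (by decide) (Or.inl rfl)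
  have h21 := hcomm 2 1 (by decide) (by decide) (by decide) (Or.inr rfl)
  have h31 := hcomm 3 1 (by decide) (by decide) (by decide) (Or.inr rfl)
  have h41 := hcomm 4 1 (by decide) (by decide) (by decide) (Or.inr rfl)
  have h11 : ((g : SL5) : M5) 1 1 = 1 := by
    rcases zmod2_cases (((g : SL5) : M5) 1 1) with h | h
    · exfalso
      have hd : (((g : SL5) : M5)).det = 0 := by
        apply Matrix.det_eq_zero_of_row_eq_zero 1
        intro b
        by_cases hb : b = 1
        · rw [hb]; exact h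
        · exact h21.2.1 b hb
      have hd1 : (((g : SL5) : M5)).det = 1 := (g : SL5).2
      rw [hd] at hd1
      exact zero_ne_one hd1
    · exact h
  have h22 : ((g : SL5) : M5) 2 2 = 1 := by rw [h21.2.2]; exact h11
  have h33 : ((g : SL5) : M5) 3 3 = 1 := by rw [h31.2.2]; exact h11
  have h44 : ((g : SL5) : M5) 4 4 = 1 := by rw [h41.2.2]; exact h11
  have h00 : ((g : SL5) : M5) 0 0 = 1 := by rw [h02.2.2]; exact h22
  have hform : ((g : SL5) : M5) = qm (((g : SL5) : M5) 0 1) 0 0 0 0 0 0 := by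
    have c1 := h02.1 1 (by decide)
    have c2 := h02.1 2 (by decide)
    have c3 := h02.1 3 (by decide)
    have c4 := h02.1 4 (by decide)
    have r12 := h21.2.1 2 (by decide)
    have r13 := h21.2.1 3 (by decide)
    have r14 := h21.2.1 4 (by decide)
    have r21 := h02.2.1 1 (by decide)
    have r23 := h02.2.1 3 (by decide)
    have r24 := h02.2.1 4 (by decide)
    have r31 := h03.2.1 1 (by decide)
    have r32 := h03.2.1 2 (by decide)
    have r34 := h03.2.1 4 (by decide)
    have r41 := h04.2.1 1 (by decide)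
    have r42 := h04.2.1 2 (by decide)
    have r43 := h04.2.1 3 (by decide)
    have r02 := h21.1 0 (by decide)
    have r03 := h31.1 0 (by decide)
    have r04 := h41.1 0 (by decide)
    ext i j
    fin_cases i <;> fin_cases j <;> simp [qm, *]
  rcases zmod2_cases (((g : SL5) : M5) 0 1) with h | h
  · left
    apply Subtype.ext
    apply Subtype.ext
    show ((g : SL5) : M5) = 1
    rw [hform, h, qm_zero]
  · right
    apply Subtype.ext
    show ((g : SL5) : M5) = (s : M5)
    rw [hform, h, qm_one, hs]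

end Cfsg.Agent.Lib.Helper10.TransvC
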